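import Cfsg.Agent.Lib.Helper97.SPQ.Defs

/-! Ladder SPQ (S5983), rung A0 (helper30). -/

set_option autoImplicit false

namespace Cfsg.Agent.Lib.Helper97.SPQ

open QuadraticMap Module
open Cfsg.Agent.Lib.Helper49 hiding glEquiv glEquiv_apply
open Cfsg.Agent.Lib.Helper95 (glEquiv glEquiv_apply)

variable {F V : Type*} [Field F] [AddCommGroup V] [Module F V] {Q : QuadraticForm F V}

theorem range_of_perp_ker [FiniteDimensional F V] (hQ : (polarBilin Q).Nondegenerate)
    {x : V ≃ₗ[F] V} (hx : x ∈ SpG Q) (c : V) (hc : ∀ k, x k = k → polar Q k c = 0) :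
    ∃ a, x a - a = c := by
  have hx' : ∀ u v, polar Q (x u) (x v) = polar Q u v := hx
  have hrefl : (polarBilin Q).IsRefl := by
    intro u v h
    have h1 : polar Q u v = 0 := h
    show polar Q v u = 0
    rw [polar_comm]; exact h1
  have hc' : c ∈ LinearMap.BilinForm.orthogonal (polarBilin Q)
      (LinearMap.BilinForm.orthogonal (polarBilin Q)
        (LinearMap.range ((x : V →ₗ[F] V) - LinearMap.id))) := by
    rw [LinearMap.BilinForm.mem_orthogonal_iff]
    intro k hk
    show polar Q k c = 0
    apply hc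
    rw [LinearMap.BilinForm.mem_orthogonal_iff] at hk
    have hk' : ∀ w, polar Q (x w - w) k = 0 := fun w =>
      hk (x w - w) ⟨w, by simp⟩
    by_contra hne
    have hne' : x k - k ≠ 0 := sub_ne_zero.2 hne
    apply hne'
    apply hQ.1
    intro y
    show polar Q (x k - k) y = 0
    obtain ⟨w, rfl⟩ := x.surjective y
    have h1 := hk' w
    rw [polar_sub_left, polar_comm, polar_comm _ w k] at h1
    rw [polar_sub_left, hx']
    linear_combination -h1
  rw [LinearMap.BilinForm.orthogonal_orthogonal hQ hrefl] at hc'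
  obtain ⟨a, ha⟩ := hc'
  exact ⟨a, by simpa using ha⟩

end Cfsg.Agent.Lib.Helper97.SPQ
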