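import Cfsg.Agent.Lib.Helper97.SPQ.Defs

/-! Ladder SPQ, rung A1. -/

set_option autoImplicit false

namespace Cfsg.Agent.Lib.Helper97.SPQ

open QuadraticMap Module

variable {F V : Type*} [Field F] [AddCommGroup V] [Module F V] {Q : QuadraticForm F V}

theorem a1_add_sq (h2 : (2 : F) = 0) (a b : F) : (a + b) ^ 2 = a ^ 2 + b ^ 2 := by
  linear_combination (a * b) * h2

theorem a1_sq_inj (h2 : (2 : F) = 0) {a b : F} (h : a ^ 2 = b ^ 2) : a = b := by
  have h1 : (a - b) ^ 2 = 0 := by linear_combination h - (a * b - b ^ 2) * h2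
  exact sub_eq_zero.mp (pow_eq_zero_iff (two_ne_zero) |>.mp h1)

/-- RUNG A1. -/
theorem sqrt_functional [Fintype F] [FiniteDimensional F V] (h2 : (2 : F) = 0)
    (hQ : (polarBilin Q).Nondegenerate) (D : V → F) (hadd : ∀ u v, D (u + v) = D u + D v)
    (hsm : ∀ (c : F) (v : V), D (c • v) = c ^ 2 * D v) : ∃ a, ∀ v, D v = polar Q a v * polar Q a v := by
  have hinj : Function.Injective (fun t : F => t ^ 2) := fun a b h => a1_sq_inj h2 h
  have hsurj : Function.Surjective (fun t : F => t ^ 2) := Finite.injective_iff_surjective.mp hinj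
  choose s hs using hsurj
  have hs' : ∀ t, s t ^ 2 = t := hs
  let lam : V →ₗ[F] F :=
    { toFun := fun v => s (D v)
      map_add' := by
        intro u v
        apply a1_sq_inj h2
        rw [a1_add_sq h2, hs', hs', hs', hadd]
      map_smul' := by
        intro c v
        apply a1_sq_inj h2
        rw [RingHom.id_apply, smul_eq_mul, mul_pow, hs', hs', hsm] }
  have hB : LinearMap.BilinForm.Nondegenerate (polarBilin Q) := hQ
  refine ⟨(LinearMap.BilinForm.toDual (polarBilin Q) hB).symm lam, fun v => ?_⟩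
  have h1 : polar Q ((LinearMap.BilinForm.toDual (polarBilin Q) hB).symm lam) v = lam v :=
    LinearMap.BilinForm.apply_toDual_symm_apply (B := polarBilin Q) (hB := hB) lam v
  rw [h1, ← pow_two]
  exact (hs' (D v)).symm

end Cfsg.Agent.Lib.Helper97.SPQ
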