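import Cfsg.Agent.Lib.Helper97.SPQ.Defs

set_option autoImplicit false

namespace Cfsg.Agent.Lib.Helper97.SPQ

open QuadraticMap Module
open Cfsg.Agent.Lib.Helper49 hiding glEquiv glEquiv_apply

variable {F V : Type*} [Field F] [AddCommGroup V] [Module F V] {Q : QuadraticForm F V}

theorem exists_inv_form (h2 : (2 : F) = 0) {x : V ≃ₗ[F] V} (hx : x ∈ SpG Q)
    (hxx : ∀ v, x (x v) = v)
    (hA0 : ∀ c : V, (∀ k, x k = k → polar Q k c = 0) → ∃ a, x a - a = c)
    (hA1 : ∀ D : V → F, (∀ u v, D (u + v) = D u + D v) → (∀ (c : F) (v : V), D (c • v) = c ^ 2 * D v) →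
      ∃ a, ∀ v, D v = polar Q a v * polar Q a v) :
    ∃ a, ∀ v, Qa Q a (x v) = Qa Q a v := by
  obtain ⟨c, hc⟩ := hA1 (fun v => Q (x v) + Q v)
    (by
      intro u v
      rw [map_add, Q_add_eq, Q_add_eq, hx]
      linear_combination (polar Q u v) * h2)
    (by
      intro c v
      rw [map_smul, QuadraticMap.map_smul, QuadraticMap.map_smul]
      simp only [smul_eq_mul]
      ring)
  obtain ⟨a, ha⟩ := hA0 c (by
    intro k hk
    have h1 := hc k
    rw [hk] at h1
    have h3 : polar Q c k * polar Q c k = 0 := by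
      rw [← h1]; linear_combination (Q k) * h2
    rw [polar_comm]
    exact mul_self_eq_zero.1 h3)
  refine ⟨a, fun v => ?_⟩
  have h1 : polar Q a (x v) = polar Q a v + polar Q c v := by
    rw [← ha, polar_sub_left]
    have := hx a (x v)
    rw [hxx] at this
    rw [this]; ring
  rw [Qa_apply, Qa_apply, h1]
  linear_combination (polar Q a v * polar Q c v + Q (x v)) * h2 - hc v

end Cfsg.Agent.Lib.Helper97.SPQ
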