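import Cfsg.Agent.Lib.Helper97.SPQ.Defs

set_option autoImplicit false

namespace Cfsg.Agent.Lib.Helper97.SPQ

open QuadraticMap Module
open Cfsg.Agent.Lib.Helper49 hiding glEquiv glEquiv_apply

variable {F V : Type*} [Field F] [AddCommGroup V] [Module F V] {Q : QuadraticForm F V}

open Cfsg.Agent.Lib.Helper48 Cfsg.Agent.Lib.Helper97.NSP in
theorem even_of_ts_fix [Fintype F] [FiniteDimensional F V] (h2 : (2 : F) = 0)
    (hQ : (polarBilin Q).Nondegenerate) {d : ℕ} (hd : finrank F V = 2 * d) (g : OG Q)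
    (hg : ∀ v, g.1 (g.1 v) = v) (hs : ∀ v, g.1 v = v → Q v = 0) : Even d := by
  obtain ⟨hL, hKM⟩ := invol_lagr h2 hQ g hg hs
  have hfin := hL.finrank_eq hQ
  let C : LinearMap.BilinForm F V := (polarBilin Q).compl₂ (dOG Q g)
  have hCa : ∀ v w, C v w = polar Q v (g.1 w - w) := fun v w => rfl
  have hAlt : C.IsAlt := by
    intro v
    rw [hCa]
    have h1 : Q (g.1 v - v) = 0 := by
      apply hL.1
      rw [hKM]
      exact ⟨v, rfl⟩
    have h3 : g.1 v - v = g.1 v + -v := sub_eq_add_neg _ _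
    rw [h3, Q_add_eq, QuadraticMap.map_neg, OG_apply, polar_neg_right] at h1
    rw [polar_sub_right, polar_self, polar_comm]
    simp only [nsmul_eq_mul, Nat.cast_ofNat]
    linear_combination -h1
  have hker : LinearMap.ker C = LinearMap.ker (dOG Q g) := by
    ext v
    rw [mem_ker_dOG, fix_iff_perp hQ, LinearMap.mem_ker]
    constructor
    · intro h w
      rw [← hCa, h]; rfl
    · intro h
      ext w
      rw [hCa, h]; rfl
  have hev := even_finrank_add_finrank_ker_of_isAlt C hAlt
  rw [hker, hd] at hev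
  have : finrank F (LinearMap.ker (dOG Q g)) = d := by omega
  rw [this] at hev
  rcases hev with ⟨m, hm⟩
  exact ⟨m - d, by omega⟩

end Cfsg.Agent.Lib.Helper97.SPQ
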