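import Cfsg.Agent.Lib.Helper97.SPQ.TAU
import Cfsg.Agent.Lib.Helper97.SPQ.A2
import Cfsg.Agent.Lib.Helper97.SPQ.A9

set_option autoImplicit false

namespace Cfsg.Agent.Lib.Helper97.SPQ

open QuadraticMap Module
open Cfsg.Agent.Lib.Helper49 hiding glEquiv glEquiv_apply

variable {F V : Type*} [Field F] [AddCommGroup V] [Module F V] {Q : QuadraticForm F V}

theorem elusSp_two_aux [Fintype F] [FiniteDimensional F V] (h2 : (2 : F) = 0)
    (hQ : (polarBilin Q).Nondegenerate) (d : ℕ) (hV : finrank F V = 2 * (d + 1))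
    (hyp : (∃ L, IsLagr Q L) ∨ Odd (d + 1))
    (hA1 : ∀ D : V → F, (∀ u v, D (u + v) = D u + D v) → (∀ (c : F) (v : V), D (c • v) = c ^ 2 * D v) →
      ∃ a, ∀ v, D v = polar Q a v * polar Q a v) : ElusSp Q 2 := by
  have hVne : ∃ x : V, x ≠ 0 := by
    have : 0 < finrank F V := by rw [hV]; omega
    have := Module.nontrivial_of_finrank_pos this
    exact exists_ne 0
  intro x hx hz _
  have hxx := sp_sq_one h2 hQ hVne hx hz
  obtain ⟨a0, ha0⟩ := exists_inv_form h2 hx hxx (fun c hc => range_of_perp_ker hQ hx c hc) hA1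
  have star : ∀ (Q2 : QuadraticForm F V) (c : V) (u : F), (∀ v w, polar Q2 v w = polar Q v w) →
      (∀ v, Q2 (x v) = Q2 v) → (∀ v, Qa Q2 c v = Q v) → Q2 c = u ^ 2 + u →
      ∃ g ∈ SpG Q, g⁻¹ * x * g ∈ OG Q := by
    intro Q2 c u hpol hinv hQQ hu
    obtain ⟨g, hg, hgQ⟩ := exists_tau (Q := Q2) h2 c u hu
    refine ⟨g, fun v w => by rw [← hpol, hg, hpol], ?_⟩
    intro v
    rw [← hQQ, ← hgQ, ← hQQ v, ← hgQ v]
    have : g ((g⁻¹ * x * g) v) = x (g v) := by simp [LinearEquiv.mul_apply]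
    rw [this, hinv]
  obtain ⟨Q1, hQ1⟩ : ∃ Q1, Q1 = Qa Q a0 := ⟨_, rfl⟩
  rw [← hQ1] at ha0
  have hpol1 : ∀ v w, polar Q1 v w = polar Q v w := by
    rw [hQ1]; exact polar_Qa h2 a0
  have hQQ1 : ∀ v, Qa Q1 a0 v = Q v := by
    intro v
    rw [Qa_apply, hpol1, hQ1, Qa_apply]
    linear_combination (polar Q a0 v) ^ 2 * h2
  by_cases hc1 : ∃ u, Q1 a0 = u ^ 2 + u
  · obtain ⟨u, hu⟩ := hc1
    exact star Q1 a0 u hpol1 ha0 hQQ1 hu
  by_cases hc2 : ∃ a, x a = a ∧ Q1 a ≠ 0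
  · obtain ⟨a, hxa, hQa⟩ := hc2
    obtain ⟨l, hl⟩ := isSquare_of_two_eq_zero h2 (Q1 a0 / Q1 a)
    obtain ⟨a', ha'⟩ : ∃ a', a' = l • a := ⟨_, rfl⟩
    have hQa' : Q1 a' = Q1 a0 := by
      rw [ha', QuadraticMap.map_smul, smul_eq_mul, ← hl]; field_simp
    have hxa' : x a' = a' := by rw [ha', map_smul, hxa]
    have haa : polar Q a' a' = 0 := by
      rw [polar_self]
      simp only [nsmul_eq_mul, Nat.cast_ofNat]
      rw [h2, zero_mul]
    refine star (Qa Q1 a') (a' + a0) (polar Q a' a0) ?_ ?_ ?_ ?_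
    · intro v w
      rw [polar_Qa h2, hpol1]
    · intro v
      rw [Qa_apply, Qa_apply, ha0, hpol1, hpol1]
      have := hx a' v
      rw [hxa'] at this
      rw [this]
    · intro v
      rw [Qa_apply, polar_Qa h2, hpol1, Qa_apply, hpol1, polar_add_left, ← hQQ1 v, Qa_apply, hpol1]
      linear_combination ((polar Q a' v) ^ 2 + polar Q a' v * polar Q a0 v) * h2
    · rw [Qa_apply, hpol1, Q_add_eq, hpol1, hQa', polar_add_right, haa]
      linear_combination (Q1 a0) * h2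
  · push Not at hc2
    exfalso
    have hQ1n : (polarBilin Q1).Nondegenerate := by
      have : polarBilin Q1 = polarBilin Q := by
        ext v w; exact hpol1 v w
      rw [this]; exact hQ
    have hxO : x ∈ OG Q1 := ha0
    rcases hyp with ⟨L, hL⟩ | hodd
    · obtain ⟨hK, -⟩ := NSP.invol_lagr h2 hQ1n ⟨x, hxO⟩ hxx hc2
      apply hc1
      have hQeq : Qa Q1 a0 = Q := by
        ext v; exact hQQ1 v
      exact as_of_two_lagr h2 hQ1n a0 _ L hK (by rw [hQeq]; exact hL)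
    · exact (Nat.not_even_iff_odd.2 hodd) (even_of_ts_fix h2 hQ1n hV ⟨x, hxO⟩ hxx hc2)

end Cfsg.Agent.Lib.Helper97.SPQ
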