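import Cfsg.Agent.Lib.Helper97.SPQ.Defs

set_option autoImplicit false

namespace Cfsg.Agent.Lib.Helper97.SPQ

open QuadraticMap Module
open Cfsg.Agent.Lib.Helper49 hiding glEquiv glEquiv_apply

variable {F V : Type*} [Field F] [AddCommGroup V] [Module F V] {Q : QuadraticForm F V}

theorem sqrt_functional' [Fintype F] [FiniteDimensional F V] (h2 : (2 : F) = 0)
    (hQ : (polarBilin Q).Nondegenerate) (D : V → F) (hadd : ∀ u v, D (u + v) = D u + D v)
    (hsm : ∀ (c : F) (v : V), D (c • v) = c ^ 2 * D v) : ∃ a, ∀ v, D v = polar Q a v * polar Q a v := by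
  have huniq : ∀ y y' : F, y * y = y' * y' → y = y' := by
    intro y y' h
    have : (y - y') * (y - y') = 0 := by linear_combination h - (y * y' - y' * y') * h2
    exact sub_eq_zero.1 (mul_self_eq_zero.1 this)
  choose s hs using fun t : F => isSquare_of_two_eq_zero h2 t
  let lam : V →ₗ[F] F :=
    { toFun := fun v => s (D v)
      map_add' := by
        intro u v
        apply huniq
        have e1 := hs (D (u + v))
        have e2 := hs (D u)
        have e3 := hs (D v)
        have e4 := hadd u v
        linear_combination -e1 + e4 + e2 + e3 -(s (D u) * s (D v)) * h2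
      map_smul' := by
        intro c v
        apply huniq
        have e1 := hs (D (c • v))
        have e2 := hs (D v)
        have e4 := hsm c v
        simp only [RingHom.id_apply, smul_eq_mul]
        linear_combination -e1 + e4 + c ^ 2 * e2 }
  refine ⟨(LinearMap.BilinForm.toDual (polarBilin Q) hQ).symm lam, fun v => ?_⟩
  have h1 : polar Q ((LinearMap.BilinForm.toDual (polarBilin Q) hQ).symm lam) v = lam v :=
    LinearMap.BilinForm.apply_toDual_symm_apply (B := polarBilin Q) (hB := hQ) lam v
  rw [h1]
  exact hs (D v)

end Cfsg.Agent.Lib.Helper97.SPQ
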