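import Cfsg.Agent.Lib.Helper97.SPQ.A10
import Cfsg.Agent.Lib.Helper97.SPQ.A1b

set_option autoImplicit false

namespace Cfsg.Agent.Lib.Helper97.SPQ

open QuadraticMap Module
open Cfsg.Agent.Lib.Helper49 hiding glEquiv glEquiv_apply

variable {F V : Type*} [Field F] [AddCommGroup V] [Module F V] {Q : QuadraticForm F V}

theorem elusSp_two [Fintype F] [FiniteDimensional F V] (h2 : (2 : F) = 0)
    (hQ : (polarBilin Q).Nondegenerate) (d : ℕ) (hV : finrank F V = 2 * (d + 1))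
    (hyp : (∃ L, IsLagr Q L) ∨ Odd (d + 1)) : ElusSp Q 2 :=
  elusSp_two_aux h2 hQ d hV hyp (sqrt_functional' h2 hQ)

end Cfsg.Agent.Lib.Helper97.SPQ
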