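import Mathlib
import Cfsg.Agent.Lib.Helper97.NSP.T12
import Cfsg.Agent.Lib.Helper97.NSP.INV
import Cfsg.Agent.Lib.Helper50.QuadIso
import Cfsg.Agent.Lib.Helper95.OmGlue

/-! Ladder SPQ (S5983): prime order elements of `Sp_2d(q)`, `q` even, and the subgroups `O^±_2d(q)`. -/

set_option autoImplicit false

namespace Cfsg.Agent.Lib.Helper97.SPQ

open QuadraticMap Module
open Cfsg.Agent.Lib.Helper49 hiding glEquiv glEquiv_apply

variable {F V : Type*} [Field F] [AddCommGroup V] [Module F V] (Q : QuadraticForm F V)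

/-- the isometry group of the polar form -/
def SpG : Subgroup (V ≃ₗ[F] V) where
  carrier := {g | ∀ u v, polar Q (g u) (g v) = polar Q u v}
  mul_mem' {a b} ha hb := by
    intro u v
    rw [LinearEquiv.mul_apply, LinearEquiv.mul_apply, ha, hb]
  one_mem' := fun _ _ => rfl
  inv_mem' {a} ha := by
    intro u v
    have h := ha (a⁻¹ u) (a⁻¹ v)
    simpa using h.symm

theorem mem_SpG {g : V ≃ₗ[F] V} : g ∈ SpG Q ↔ ∀ u v, polar Q (g u) (g v) = polar Q u v := Iff.rfl

theorem OG_le_SpG : OG Q ≤ SpG Q := fun g hg u v => OG_polar Q ⟨g, hg⟩ u v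

theorem mem_OG {g : V ≃ₗ[F] V} : g ∈ OG Q ↔ ∀ v, Q (g v) = Q v := Iff.rfl

/-- every element of `Sp` of order `r` modulo scalars is conjugate in `Sp` into `O(Q)` -/
def ElusSp (r : ℕ) : Prop :=
  ∀ x ∈ SpG Q, (∃ z : F, ∀ v, (x ^ r) v = z • v) → (∀ z : F, ∃ v, x v ≠ z • v) →
    ∃ g ∈ SpG Q, g⁻¹ * x * g ∈ OG Q

/-- the form `Q + B(a, ·)²` -/
noncomputable def Qa (a : V) : QuadraticForm F V :=
  Q + QuadraticMap.linMulLin (polarBilin Q a) (polarBilin Q a)

theorem Qa_apply (a v : V) : Qa Q a v = Q v + polar Q a v * polar Q a v := rfl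

/-- the number of singular vectors -/
noncomputable def Nsing : ℕ := Nat.card {v : V // Q v = 0}

end Cfsg.Agent.Lib.Helper97.SPQ
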