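import Cfsg.Agent.Lib.Helper97.SPQ.Defs
import Cfsg.Agent.Lib.Helper97.NSP.GLUE

set_option autoImplicit false

namespace Cfsg.Agent.Lib.Helper97.SPQ

open QuadraticMap Module
open Cfsg.Agent.Lib.Helper49 hiding glEquiv glEquiv_apply
open Cfsg.Agent.Lib.Helper95 (glEquiv glEquiv_apply)

theorem mem_spGL_iff_SpG {F : Type*} [Field F] (d : ℕ) (Q : QuadraticForm F (Fin d ⊕ Fin d → F))
    (hQf : ∀ u v, polar Q u v = Cfsg.sympForm d F u v) (x : GL (Fin d ⊕ Fin d) F) :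
    x ∈ Cfsg.spGL d F ↔ glEquiv x ∈ SpG Q := by
  rw [Cfsg.Agent.Lib.Helper95.mem_spGL_iff, Cfsg.Agent.Lib.Helper95.mem_isoGrp, mem_SpG]
  simp only [Cfsg.Agent.Lib.Helper95.sympB_apply, hQf]

theorem mem_quadSim_iff_OG {F : Type*} [Field F] (d : ℕ) (hd : 0 < d)
    (Q : QuadraticForm F (Fin d ⊕ Fin d → F))
    (hQf : ∀ u v, polar Q u v = Cfsg.sympForm d F u v) (x : GL (Fin d ⊕ Fin d) F)
    (hx : x ∈ Cfsg.spGL d F) :
    x ∈ Cfsg.Geo.quadSimilarityGroup ⇑Q ↔ glEquiv x ∈ OG Q := by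
  constructor
  · rintro ⟨c, hc⟩
    have hS := (mem_spGL_iff_SpG d Q hQf x).1 hx
    have hc' : ∀ v, Q (glEquiv x v) = (c : F) * Q v := by
      intro v
      rw [glEquiv_apply]; exact hc v
    obtain ⟨u, v, huv⟩ : ∃ u v, polar Q u v ≠ 0 := by
      refine ⟨Pi.single (Sum.inr ⟨0, hd⟩) 1, Pi.single (Sum.inl ⟨0, hd⟩) 1, ?_⟩
      rw [hQf, Cfsg.Agent.Lib.Helper95.sympForm_eq]
      simp [Pi.single_apply]
    have h1 := hS u v
    have h3 : polar Q (glEquiv x u) (glEquiv x v) = (c : F) * polar Q u v := by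
      unfold polar
      rw [← map_add, hc', hc', hc']
      ring
    have hc1 : (c : F) = 1 := by
      apply mul_right_cancel₀ huv
      rw [← h3, h1, one_mul]
    intro v
    rw [hc', hc1, one_mul]
  · intro h
    refine ⟨1, fun v => ?_⟩
    rw [← glEquiv_apply, h v]
    simp

theorem glueSp {F : Type*} [Field F] (d : ℕ) (hd : 0 < d) (Q : QuadraticForm F (Fin d ⊕ Fin d → F))
    (hQf : ∀ u v, polar Q u v = Cfsg.sympForm d F u v) (r : ℕ) :
    (∀ x ∈ Cfsg.spGL d F, (∃ z : F, ((x ^ r : GL (Fin d ⊕ Fin d) F) : Matrix (Fin d ⊕ Fin d) (Fin d ⊕ Fin d) F) = z • (1 : Matrix (Fin d ⊕ Fin d) (Fin d ⊕ Fin d) F)) →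
      (∀ z : F, (x : Matrix (Fin d ⊕ Fin d) (Fin d ⊕ Fin d) F) ≠ z • (1 : Matrix (Fin d ⊕ Fin d) (Fin d ⊕ Fin d) F)) →
      ∃ g ∈ Cfsg.spGL d F, g⁻¹ * x * g ∈ Cfsg.Geo.quadSimilarityGroup ⇑Q) ↔ ElusSp Q r := by
  constructor
  · intro H y hy hz hns
    have hx : glEquiv (glEquiv.symm y : GL (Fin d ⊕ Fin d) F) = y := MulEquiv.apply_symm_apply _ _
    have hxS : (glEquiv.symm y : GL (Fin d ⊕ Fin d) F) ∈ Cfsg.spGL d F := by
      rw [mem_spGL_iff_SpG d Q hQf, hx]; exact hy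
    obtain ⟨g, hg, hgx⟩ := H (glEquiv.symm y) hxS
      (by
        obtain ⟨z, hz⟩ := hz
        refine ⟨z, (NSP.mat_eq_smul_one_iff _ z).2 fun v => ?_⟩
        rw [← glEquiv_apply, map_pow, hx, hz])
      (by
        intro z hzz
        obtain ⟨v, hv⟩ := hns z
        apply hv
        have := (NSP.mat_eq_smul_one_iff _ z).1 hzz v
        rw [← glEquiv_apply, hx] at this
        exact this)
    refine ⟨glEquiv g, (mem_spGL_iff_SpG d Q hQf g).1 hg, ?_⟩
    rw [mem_quadSim_iff_OG d hd Q hQf _ (mul_mem (mul_mem (inv_mem hg) hxS) hg)] at hgx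
    rw [map_mul, map_mul, map_inv, hx] at hgx
    exact hgx
  · intro H x hxS hz hns
    obtain ⟨g, hg, hgx⟩ := H (glEquiv x) ((mem_spGL_iff_SpG d Q hQf x).1 hxS)
      (by
        obtain ⟨z, hz⟩ := hz
        refine ⟨z, fun v => ?_⟩
        rw [← map_pow, glEquiv_apply]
        exact (NSP.mat_eq_smul_one_iff _ z).1 hz v)
      (by
        intro z
        by_contra hcon
        push Not at hcon
        apply hns z
        rw [NSP.mat_eq_smul_one_iff]
        intro v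
        rw [← glEquiv_apply, hcon v])
    have hg' : glEquiv (glEquiv.symm g : GL (Fin d ⊕ Fin d) F) = g := MulEquiv.apply_symm_apply _ _
    have hgS : (glEquiv.symm g : GL (Fin d ⊕ Fin d) F) ∈ Cfsg.spGL d F := by
      rw [mem_spGL_iff_SpG d Q hQf, hg']; exact hg
    refine ⟨glEquiv.symm g, hgS, ?_⟩
    rw [mem_quadSim_iff_OG d hd Q hQf _ (mul_mem (mul_mem (inv_mem hgS) hxS) hgS)]
    rw [map_mul, map_mul, map_inv, hg']
    exact hgx

theorem relIndex_eq {F : Type*} [Field F] (d : ℕ) (hd : 0 < d)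
    (Q : QuadraticForm F (Fin d ⊕ Fin d → F))
    (hQf : ∀ u v, polar Q u v = Cfsg.sympForm d F u v) :
    (Cfsg.Geo.quadSimilarityGroup ⇑Q).relIndex (Cfsg.spGL d F) = (OG Q).relIndex (SpG Q) := by
  rw [← Subgroup.inf_relIndex_right]
  rw [← Subgroup.relIndex_map_map_of_injective (f := (glEquiv : GL (Fin d ⊕ Fin d) F ≃* _).toMonoidHom) _ _
    (glEquiv : GL (Fin d ⊕ Fin d) F ≃* _).injective]
  congr 1
  · ext y
    constructor
    · rintro ⟨x, ⟨hx1, hx2⟩, rfl⟩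
      exact (mem_quadSim_iff_OG d hd Q hQf x hx2).1 hx1
    · intro hy
      have hx : glEquiv (glEquiv.symm y : GL (Fin d ⊕ Fin d) F) = y := MulEquiv.apply_symm_apply _ _
      have hxS : (glEquiv.symm y : GL (Fin d ⊕ Fin d) F) ∈ Cfsg.spGL d F := by
        rw [mem_spGL_iff_SpG d Q hQf, hx]; exact OG_le_SpG Q hy
      refine ⟨glEquiv.symm y, ⟨?_, hxS⟩, hx⟩
      change _ ∈ Cfsg.Geo.quadSimilarityGroup ⇑Q
      rw [mem_quadSim_iff_OG d hd Q hQf _ hxS, hx]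
      exact hy
  · ext y
    constructor
    · rintro ⟨x, hx, rfl⟩
      exact (mem_spGL_iff_SpG d Q hQf x).1 hx
    · intro hy
      have hx : glEquiv (glEquiv.symm y : GL (Fin d ⊕ Fin d) F) = y := MulEquiv.apply_symm_apply _ _
      refine ⟨glEquiv.symm y, ?_, hx⟩
      change _ ∈ Cfsg.spGL d F
      rw [mem_spGL_iff_SpG d Q hQf, hx]; exact hy

end Cfsg.Agent.Lib.Helper97.SPQ
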