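import Cfsg.Agent.Lib.Helper97.SPQ.Defs

set_option autoImplicit false

namespace Cfsg.Agent.Lib.Helper97.SPQ

open QuadraticMap Module
open Cfsg.Agent.Lib.Helper49 hiding glEquiv glEquiv_apply

variable {F V : Type*} [Field F] [AddCommGroup V] [Module F V] {Q : QuadraticForm F V}

theorem sp_fix_iff_perp (hQ : (polarBilin Q).Nondegenerate) {h : V ≃ₗ[F] V} (hh : h ∈ SpG Q) (c : V) :
    h c = c ↔ ∀ w, polar Q c (h w - w) = 0 := by
  constructor
  · intro hc w
    rw [polar_sub_right]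
    nth_rewrite 1 [← hc]
    rw [hh, sub_self]
  · intro hw
    by_contra hne
    have hne' : h c - c ≠ 0 := sub_ne_zero.2 hne
    obtain ⟨y, hy⟩ := exists_polar_ne_zero Q hQ hne'
    apply hy
    obtain ⟨w, rfl⟩ := h.surjective y
    have := hw w
    rw [polar_sub_right] at this
    rw [polar_sub_left, hh]
    linear_combination -this

theorem lin_pow_apply_of_fixed (h : V ≃ₗ[F] V) (w : V) (hx : h (h w - w) = h w - w) (i : ℕ) :
    (h ^ i) w = w + (i : F) • (h w - w) := by
  induction i with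
  | zero => simp
  | succ i ih =>
    have : (h ^ (i + 1)) w = h ((h ^ i) w) := by
      rw [pow_succ']; rfl
    rw [this, ih, map_add, map_smul, hx]
    push_cast
    module

theorem lin_ker_inf_range {r : ℕ} (hr : (r : F) ≠ 0) (h : V ≃ₗ[F] V) (hh : h ^ r = 1) (w : V)
    (hx : h (h w - w) = h w - w) : h w - w = 0 := by
  have h1 := lin_pow_apply_of_fixed h w hx r
  rw [hh] at h1
  have h2 : (r : F) • (h w - w) = 0 := by
    have : (1 : V ≃ₗ[F] V) w = w := rfl
    rw [this] at h1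
    have h3 := h1.symm
    rwa [add_eq_left] at h3
  exact (smul_eq_zero.1 h2).resolve_left hr

theorem mem_ker_sub_id (h : V ≃ₗ[F] V) (v : V) :
    v ∈ LinearMap.ker ((h : V →ₗ[F] V) - LinearMap.id) ↔ h v = v := by
  rw [LinearMap.mem_ker, LinearMap.sub_apply, LinearMap.id_apply, sub_eq_zero]; rfl

theorem sp_improve [FiniteDimensional F V] (hQ : (polarBilin Q).Nondegenerate) {r : ℕ}
    (hr : (r : F) ≠ 0) {h k : V ≃ₗ[F] V} (hhS : h ∈ SpG Q) (hkS : k ∈ SpG Q) (hh : h ^ r = 1)
    (hk : k ^ r = 1) (hk1 : k ≠ 1) (hfix : ∀ w, k (h w - w) = h w - w) :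
    Commute h k ∧ (h * k) ^ r = 1 ∧
      finrank F (LinearMap.ker (((h * k : V ≃ₗ[F] V) : V →ₗ[F] V) - LinearMap.id)) <
        finrank F (LinearMap.ker ((h : V →ₗ[F] V) - LinearMap.id)) := by
  have hC : ∀ v, h (k v - v) = k v - v := by
    intro v
    rw [sp_fix_iff_perp hQ hhS]
    intro w
    rw [polar_sub_left]
    nth_rewrite 1 [← hfix w]
    rw [hkS, sub_self]
  have hmul : ∀ (a b : V ≃ₗ[F] V) (v : V), (a * b) v = a (b v) := fun _ _ _ => rfl
  have hcomm : Commute h k := by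
    apply LinearEquiv.ext
    intro v
    rw [hmul, hmul]
    have e1 := hC v
    have e2 := hfix v
    rw [map_sub] at e1 e2
    have e3 : h (k v) = k v - v + h v := by rw [← e1]; abel
    have e4 : k (h v) = h v - v + k v := by rw [← e2]; abel
    rw [e3, e4]; abel
  have hle : LinearMap.ker (((h * k : V ≃ₗ[F] V) : V →ₗ[F] V) - LinearMap.id) ≤
      LinearMap.ker ((h : V →ₗ[F] V) - LinearMap.id) := by
    intro v hv
    rw [mem_ker_sub_id] at hv ⊢
    rw [hmul] at hv
    have e1 := hC v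
    have e2 : h v - v = -(k v - v) := by
      have e3 := e1
      rw [map_sub, hv] at e3
      rw [← e3]; abel
    have e4 : h (h v - v) = h v - v := by
      rw [e2, map_neg, e1]
    exact sub_eq_zero.1 (lin_ker_inf_range hr h hh v e4)
  refine ⟨hcomm, by rw [hcomm.mul_pow, hh, hk, one_mul], ?_⟩
  by_contra hnot
  push Not at hnot
  have heq := Submodule.eq_of_le_of_finrank_le hle hnot
  apply hk1
  apply LinearEquiv.ext
  intro v
  have hkC : ∀ c, h c = c → k c = c := by
    intro c hc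
    have h1 : c ∈ LinearMap.ker (((h * k : V ≃ₗ[F] V) : V →ₗ[F] V) - LinearMap.id) := by
      rw [heq, mem_ker_sub_id]; exact hc
    rw [mem_ker_sub_id, hmul] at h1
    apply h.injective
    rw [h1, hc]
  have := lin_ker_inf_range hr k hk v (hkC _ (hC v))
  exact sub_eq_zero.1 this

theorem count_abs {G X : Type*} [Group G] [Finite G] [MulAction G X] [Finite X] {r : ℕ}
    [Fact r.Prime] (hcard : r ∣ Nat.card X) (h : G) (hh : h ^ r = 1) (L : Subgroup G)
    (hL : ∀ k ∈ L, ∀ x : X, h • x = x → h • (k • x) = k • x)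
    (htr : ∀ x y : X, h • x = x → h • y = y → ∃ k ∈ L, k • x = y)
    (x0 : X) (hx0 : h • x0 = x0) : ∃ k ∈ L, k ^ r = 1 ∧ k ≠ 1 := by
  have hP : IsPGroup r (Subgroup.zpowers h) := by
    rintro ⟨g, hg⟩
    obtain ⟨n, rfl⟩ := Subgroup.mem_zpowers_iff.1 hg
    refine ⟨1, Subtype.ext ?_⟩
    simp only [pow_one, Subgroup.coe_pow, Subgroup.coe_one]
    rw [← zpow_natCast, ← zpow_mul, mul_comm, zpow_mul, zpow_natCast, hh, one_zpow]
  have h1 := hP.card_modEq_card_fixedPoints X
  have h2 : r ∣ Nat.card (MulAction.fixedPoints (Subgroup.zpowers h) X) :=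
    (Nat.modEq_zero_iff_dvd.1 (h1.symm.trans (Nat.modEq_zero_iff_dvd.2 hcard)))
  have h3 : MulAction.fixedPoints (Subgroup.zpowers h) X = MulAction.orbit L x0 := by
    ext s
    constructor
    · intro hs
      have hs' : h • s = s := hs ⟨h, Subgroup.mem_zpowers h⟩
      obtain ⟨k, hk1, hk2⟩ := htr x0 s hx0 hs'
      exact ⟨⟨k, hk1⟩, hk2⟩
    · rintro ⟨⟨k, hk⟩, rfl⟩
      have hfix : h • (k • x0) = k • x0 := hL k hk x0 hx0
      rintro ⟨g, hg⟩
      obtain ⟨n, rfl⟩ := Subgroup.mem_zpowers_iff.1 hg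
      have hstab : h ∈ MulAction.stabilizer G (k • x0) := by
        rw [MulAction.mem_stabilizer_iff]
        exact hfix
      exact MulAction.mem_stabilizer_iff.1 (Subgroup.zpow_mem _ hstab n)
  rw [h3, Nat.card_coe_set_eq, ← MulAction.index_stabilizer] at h2
  have h4 : r ∣ Nat.card L := h2.trans (Subgroup.index_dvd_card _)
  obtain ⟨k, hk⟩ := exists_prime_orderOf_dvd_card' r h4
  refine ⟨k.1, k.2, ?_, ?_⟩
  · have := pow_orderOf_eq_one k
    rw [hk] at this
    exact congrArg Subtype.val this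
  · intro h1
    have : k = 1 := Subtype.ext h1
    rw [this, orderOf_one] at hk
    exact (Fact.out : r.Prime).one_lt.ne hk

end Cfsg.Agent.Lib.Helper97.SPQ
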