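import Cfsg.Agent.Lib.Helper97.SPQ.Defs

set_option autoImplicit false

namespace Cfsg.Agent.Lib.Helper97.SPQ

open QuadraticMap Module
open Cfsg.Agent.Lib.Helper49 hiding glEquiv glEquiv_apply

variable {F V : Type*} [Field F] [AddCommGroup V] [Module F V] {Q : QuadraticForm F V}

theorem Q_conj_range (h2 : (2 : F) = 0) {h g : V ≃ₗ[F] V} (hg : g ∈ SpG Q)
    (h1 : g⁻¹ * h * g ∈ OG Q) (w : V) : Q (g⁻¹ (h w - w)) = - polar Q (h w) w := by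
  have hinv : g⁻¹ ∈ SpG Q := inv_mem hg
  have e1 : Q (g⁻¹ (h w)) = Q (g⁻¹ w) := by
    have := h1 (g⁻¹ w)
    rw [← this]
    congr 1
    simp [LinearEquiv.mul_apply]
  rw [map_sub, sub_eq_add_neg, Q_add_eq, QuadraticMap.map_neg, polar_neg_right, hinv, e1]
  linear_combination (Q (g⁻¹ w)) * h2

theorem sp_trans [Fintype F] [FiniteDimensional F V] (h2 : (2 : F) = 0)
    (hQ : (polarBilin Q).Nondegenerate) {h g1 g2 : V ≃ₗ[F] V} (hh : h ∈ SpG Q) (hg1 : g1 ∈ SpG Q)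
    (hg2 : g2 ∈ SpG Q) (h1 : g1⁻¹ * h * g1 ∈ OG Q) (h2' : g2⁻¹ * h * g2 ∈ OG Q) :
    ∃ k ∈ SpG Q, (∀ w, k (h w - w) = h w - w) ∧ g2⁻¹ * k * g1 ∈ OG Q := by
  let X : Submodule F V := Submodule.map ((g1⁻¹ : V ≃ₗ[F] V) : V →ₗ[F] V)
    (LinearMap.range ((h : V →ₗ[F] V) - LinearMap.id))
  have hX : ∀ x ∈ X, ∃ w, x = g1⁻¹ (h w - w) := by
    rintro x ⟨m, ⟨w, rfl⟩, rfl⟩
    exact ⟨w, rfl⟩
  have hmX : ∀ w, g1⁻¹ (h w - w) ∈ X := fun w => ⟨_, ⟨w, rfl⟩, rfl⟩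
  obtain ⟨t, ht⟩ := witt_OG Q hQ X _ (LinearEquiv.submoduleMap (g2⁻¹ * g1) X) (by
    rintro ⟨x, hx⟩
    rw [LinearEquiv.submoduleMap_apply]
    obtain ⟨w, rfl⟩ := hX x hx
    have : (g2⁻¹ * g1) (g1⁻¹ (h w - w)) = g2⁻¹ (h w - w) := by
      simp [LinearEquiv.mul_apply]
    change Q ((g2⁻¹ * g1) (g1⁻¹ (h w - w))) = Q (g1⁻¹ (h w - w))
    rw [this, Q_conj_range h2 hg1 h1, Q_conj_range h2 hg2 h2'])
  refine ⟨g2 * t.1 * g1⁻¹, mul_mem (mul_mem hg2 (OG_le_SpG Q t.2)) (inv_mem hg1), ?_, ?_⟩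
  · intro w
    have := ht ⟨_, hmX w⟩
    rw [LinearEquiv.submoduleMap_apply] at this
    rw [LinearEquiv.mul_apply, LinearEquiv.mul_apply]
    change t.1 (g1⁻¹ (h w - w)) = (g2⁻¹ * g1) (g1⁻¹ (h w - w)) at this
    rw [this]
    simp [LinearEquiv.mul_apply]
  · have : g2⁻¹ * (g2 * t.1 * g1⁻¹) * g1 = t.1 := by group
    rw [this]
    exact t.2

end Cfsg.Agent.Lib.Helper97.SPQ
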