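import Cfsg.Agent.Lib.Helper97.SPQ.S1245
import Cfsg.Agent.Lib.Helper97.SPQ.S3

set_option autoImplicit false

namespace Cfsg.Agent.Lib.Helper97.SPQ

open QuadraticMap Module
open Cfsg.Agent.Lib.Helper49 hiding glEquiv glEquiv_apply

variable {F V : Type*} [Field F] [AddCommGroup V] [Module F V] {Q : QuadraticForm F V}

/-- the pointwise stabiliser of `range (h - 1)` in `SpG Q` -/
def fixRangeSp (Q : QuadraticForm F V) (h : V ≃ₗ[F] V) : Subgroup (SpG Q) where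
  carrier := {k | ∀ w, k.1 (h w - w) = h w - w}
  mul_mem' {a b} ha hb := by
    intro w
    change a.1 (b.1 _) = _
    rw [hb w, ha w]
  one_mem' := fun _ => rfl
  inv_mem' {a} ha := by
    intro w
    have h1 : (a⁻¹).1 (a.1 (h w - w)) = h w - w := by
      have : (a⁻¹ * a).1 (h w - w) = h w - w := by rw [inv_mul_cancel]; rfl
      exact this
    rw [ha w] at h1
    exact h1

theorem commute_of_fixRange (hQ : (polarBilin Q).Nondegenerate) {h k : V ≃ₗ[F] V} (hh : h ∈ SpG Q)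
    (hk : k ∈ SpG Q) (hfix : ∀ w, k (h w - w) = h w - w) : h * k = k * h := by
  ext w
  rw [LinearEquiv.mul_apply, LinearEquiv.mul_apply]
  have h1 : h (k w - w) = k w - w := by
    rw [sp_fix_iff_perp hQ hh]
    intro u
    have h3 := (sp_fix_iff_perp hQ hk (h u - u)).1 (hfix u) w
    rw [polar_comm]
    exact h3
  have h2 := hfix w
  rw [map_sub] at h1 h2
  have e1 : h (k w) = k w - w + h w := by rw [← h1]; abel
  have e2 : k (h w) = h w - w + k w := by rw [← h2]; abel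
  rw [e1, e2]; abel

theorem stepSp [Fintype F] [FiniteDimensional F V] (h2 : (2 : F) = 0)
    (hQ : (polarBilin Q).Nondegenerate) {r : ℕ} [Fact r.Prime]
    (hcard : r ∣ (OG Q).relIndex (SpG Q)) {h g0 : V ≃ₗ[F] V} (hS : h ∈ SpG Q) (hh : h ^ r = 1)
    (hg0 : g0 ∈ SpG Q) (hg0' : g0⁻¹ * h * g0 ∈ OG Q) :
    ∃ k ∈ SpG Q, (∀ w, k (h w - w) = h w - w) ∧ k ^ r = 1 ∧ k ≠ 1 := by
  have : Finite V := Module.finite_of_finite F
  have : Finite (V ≃ₗ[F] V) :=
    Finite.of_injective (fun g : V ≃ₗ[F] V => (g : V → V)) DFunLike.coe_injective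
  have hfixiff : ∀ g : SpG Q, ((⟨h, hS⟩ : SpG Q) • (QuotientGroup.mk g : SpG Q ⧸ (OG Q).subgroupOf (SpG Q)) =
      QuotientGroup.mk g) ↔ g.1⁻¹ * h * g.1 ∈ OG Q := by
    intro g
    rw [MulAction.Quotient.smul_mk, eq_comm, QuotientGroup.eq, Subgroup.mem_subgroupOf]
    simp [mul_assoc]
  obtain ⟨k, hkL, hk, hk1⟩ := count_abs (G := SpG Q) (X := SpG Q ⧸ (OG Q).subgroupOf (SpG Q)) (r := r)
    (by rw [← Subgroup.index_eq_card]; exact hcard) ⟨h, hS⟩ (Subtype.ext hh) (fixRangeSp Q h)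
    (by
      intro k hk x hx
      have hc : (⟨h, hS⟩ : SpG Q) * k = k * ⟨h, hS⟩ := Subtype.ext (commute_of_fixRange hQ hS k.2 hk)
      rw [← mul_smul, hc, mul_smul, hx])
    (by
      intro x y hx hy
      induction x using QuotientGroup.induction_on with
      | H g1 =>
      induction y using QuotientGroup.induction_on with
      | H g2 =>
      rw [hfixiff] at hx hy
      obtain ⟨k, hkS, hkf, hk⟩ := sp_trans h2 hQ hS g1.2 g2.2 hx hy
      refine ⟨⟨k, hkS⟩, hkf, ?_⟩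
      rw [MulAction.Quotient.smul_mk, eq_comm, QuotientGroup.eq, Subgroup.mem_subgroupOf]
      simpa [mul_assoc] using hk)
    (QuotientGroup.mk ⟨g0, hg0⟩) ((hfixiff ⟨g0, hg0⟩).2 hg0')
  refine ⟨k.1, k.2, hkL, congrArg Subtype.val hk, ?_⟩
  intro h1
  exact hk1 (Subtype.ext h1)

theorem keySp [Fintype F] [FiniteDimensional F V] (h2 : (2 : F) = 0)
    (hQ : (polarBilin Q).Nondegenerate) {r : ℕ} [Fact r.Prime] (hr : (r : F) ≠ 0)
    (hcard : r ∣ (OG Q).relIndex (SpG Q)) :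
    ∃ h ∈ SpG Q, h ^ r = 1 ∧ ∀ g ∈ SpG Q, g⁻¹ * h * g ∉ OG Q := by
  have main : ∀ n : ℕ, ∀ h ∈ SpG Q, h ^ r = 1 →
      finrank F (LinearMap.ker ((h : V →ₗ[F] V) - LinearMap.id)) = n →
      ∃ h ∈ SpG Q, h ^ r = 1 ∧ ∀ g ∈ SpG Q, g⁻¹ * h * g ∉ OG Q := by
    intro n
    induction n using Nat.strong_induction_on with
    | _ n ih =>
      intro h hS hh hn
      by_cases hfix : ∃ g ∈ SpG Q, g⁻¹ * h * g ∈ OG Q
      · obtain ⟨g0, hg0, hg0'⟩ := hfix
        obtain ⟨k, hkS, hkf, hk, hk1⟩ := stepSp h2 hQ hcard hS hh hg0 hg0'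
        obtain ⟨_, h1, h2⟩ := sp_improve hQ hr hS hkS hh hk hk1 hkf
        exact ih _ (hn ▸ h2) (h * k) (mul_mem hS hkS) h1 rfl
      · push Not at hfix
        exact ⟨h, hS, hh, hfix⟩
  exact main _ 1 (one_mem _) (one_pow r) rfl

end Cfsg.Agent.Lib.Helper97.SPQ
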