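import Cfsg.Agent.Lib.Helper97.SPQ.Defs

set_option autoImplicit false

namespace Cfsg.Agent.Lib.Helper97.SPQ

open QuadraticMap Module
open Cfsg.Agent.Lib.Helper49 hiding glEquiv glEquiv_apply

variable {F V : Type*} [Field F] [AddCommGroup V] [Module F V] {Q : QuadraticForm F V}

theorem sp_scalar_one (h2 : (2 : F) = 0) (hQ : (polarBilin Q).Nondegenerate) (hV : ∃ x : V, x ≠ 0)
    {y : V ≃ₗ[F] V} (hy : y ∈ SpG Q) {z : F} (hz : ∀ v, y v = z • v) : z = 1 := by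
  obtain ⟨u, hu⟩ := hV
  obtain ⟨v, hv⟩ := exists_polar_ne_zero Q hQ hu
  have h1 := hy u v
  rw [hz, hz, polar_smul_left, polar_smul_right, smul_eq_mul, smul_eq_mul] at h1
  apply NSP.eq_one_of_sq h2
  apply mul_right_cancel₀ hv
  linear_combination h1

theorem not_elusSp_of_key (h2 : (2 : F) = 0) (hQ : (polarBilin Q).Nondegenerate)
    (hV : ∃ x : V, x ≠ 0) {r : ℕ}
    (hkey : ∃ h ∈ SpG Q, h ^ r = 1 ∧ ∀ g ∈ SpG Q, g⁻¹ * h * g ∉ OG Q) : ¬ ElusSp Q r := by
  intro hE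
  obtain ⟨h, hS, hh, hno⟩ := hkey
  have hns : ∀ z : F, ∃ v, h v ≠ z • v := by
    intro z
    by_contra hcon
    push Not at hcon
    have hz := sp_scalar_one h2 hQ hV hS hcon
    have h1 : h = 1 := by
      ext v
      rw [hcon, hz, one_smul]; rfl
    apply hno 1 (one_mem _)
    rw [h1]
    simp only [inv_one, mul_one]
    exact one_mem _
  obtain ⟨g, hg, hg'⟩ := hE h hS ⟨1, fun v => by rw [hh, one_smul]; rfl⟩ hns
  exact hno g hg hg'

theorem sp_sq_one (h2 : (2 : F) = 0) (hQ : (polarBilin Q).Nondegenerate) (hV : ∃ x : V, x ≠ 0)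
    {x : V ≃ₗ[F] V} (hx : x ∈ SpG Q) (hz : ∃ z : F, ∀ v, (x ^ 2) v = z • v) : ∀ v, x (x v) = v := by
  obtain ⟨z, hz⟩ := hz
  have h1 := sp_scalar_one h2 hQ hV (pow_mem hx 2) hz
  intro v
  have := hz v
  rw [h1, one_smul, pow_two] at this
  exact this

theorem polar_Qa (h2 : (2 : F) = 0) (a u v : V) : polar (Qa Q a) u v = polar Q u v := by
  unfold polar
  rw [Qa_apply, Qa_apply, Qa_apply, polar_add_right]
  unfold polar
  linear_combination (Q (a + u) - Q a - Q u) * (Q (a + v) - Q a - Q v) * h2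

end Cfsg.Agent.Lib.Helper97.SPQ
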