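import Cfsg.Agent.Lib.Helper97.SPQ.Defs
import Cfsg.Agent.Lib.Helper97.NSP.T4

/-! Ladder SPQ (S5983), rung T4S (helper98). -/

set_option autoImplicit false

namespace Cfsg.Agent.Lib.Helper97.SPQ

open QuadraticMap Module
open Cfsg.Agent.Lib.Helper49 hiding glEquiv glEquiv_apply
open Cfsg.Agent.Lib.Helper95 (glEquiv glEquiv_apply)

/-- in characteristic 2 the polar form of `plusQF` is the standard symplectic form -/
theorem t4s_polar {F : Type*} [Field F] (h2 : (2 : F) = 0) (d : ℕ) (u v : Fin d ⊕ Fin d → F) :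
    polar (plusQF d F) u v = Cfsg.sympForm d F u v := by
  rw [plusQF_coe, polar_quadFormPlus, Cfsg.Agent.Lib.Helper95.sympForm_eq]
  refine Finset.sum_congr rfl fun i _ => ?_
  linear_combination (u (Sum.inl i) * v (Sum.inr i)) * h2

/-- `uLin m` preserves the standard symplectic form in characteristic 2 -/
theorem t4s_symp {F : Type*} [Field F] (h2 : (2 : F) = 0) (m : ℕ) (hm : 0 < m)
    (u v : Fin (m + m) ⊕ Fin (m + m) → F) :
    Cfsg.sympForm (m + m) F (NSP.uLin m u) (NSP.uLin m v) = Cfsg.sympForm (m + m) F u v := by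
  rw [← t4s_polar h2, ← t4s_polar h2]
  unfold polar
  rw [← map_add, NSP.Q_uLin h2 m hm, NSP.Q_uLin h2 m hm, NSP.Q_uLin h2 m hm]

/-- `B (x w, w) = 0` -/
theorem t4s_zero {F : Type*} [Field F] (h2 : (2 : F) = 0) (m : ℕ) (hm : 0 < m)
    (w : Fin (m + m) ⊕ Fin (m + m) → F) :
    Cfsg.sympForm (m + m) F (NSP.uLin m w) w = 0 := by
  rw [← t4s_polar h2]
  unfold polar
  rw [NSP.Q_uLin h2 m hm]
  have h0 : plusQF (m + m) F (NSP.uLin m w + w) = 0 := by
    rw [plusQF_coe]
    unfold Cfsg.quadFormPlus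
    refine Finset.sum_eq_zero fun i _ => ?_
    have : (NSP.uLin m w + w) (Sum.inr i) = 0 := by
      rw [Pi.add_apply, NSP.uLin_inr]
      linear_combination w (Sum.inr i) * h2
    rw [this, mul_zero]
  rw [h0]
  linear_combination (-(plusQF (m + m) F w)) * h2

/-- the rank of `uLin m - 1` -/
theorem t4s_rank {F : Type*} [Field F] (h2 : (2 : F) = 0) (m : ℕ) (hm : 0 < m) :
    finrank F (LinearMap.range (NSP.uLin (F := F) m - LinearMap.id)) = m + m := by
  have hfr : Module.finrank F (Fin (m + m) ⊕ Fin (m + m) → F) = 2 * (m + m) := by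
    rw [Module.finrank_fintype_fun_eq_card, Fintype.card_sum, Fintype.card_fin]; ring
  have hker : LinearMap.ker (NSP.uLin (F := F) m - LinearMap.id) =
      LinearMap.range (NSP.uLin (F := F) m - LinearMap.id) := by
    ext v
    rw [LinearMap.mem_ker, LinearMap.sub_apply, LinearMap.id_apply, sub_eq_zero,
      ← NSP.uOG_apply h2 m hm, NSP.uOG_fix_iff]
    constructor
    · intro h
      refine ⟨Sum.elim (fun _ => 0) (fun i => v (Sum.inl (NSP.shiftσ m i))), ?_⟩
      rw [LinearMap.sub_apply, LinearMap.id_apply]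
      ext (i | i)
      · simp [NSP.uLin_inl, NSP.shiftσ_shiftσ]
      · simp [NSP.uLin_inr, h]
    · rintro ⟨w, rfl⟩ i
      rw [LinearMap.sub_apply, LinearMap.id_apply]
      simp [NSP.uLin_inr]
  have d1 := LinearMap.finrank_range_add_finrank_ker (NSP.uLin (F := F) m - LinearMap.id)
  rw [hker, hfr] at d1
  omega

/-- RUNG T4S. -/
theorem plus_of_elusSp_two {F : Type*} [Field F] [Fintype F] (h2 : (2 : F) = 0) (m : ℕ) (hm : 0 < m)
    (Q : QuadraticForm F (Fin (m + m) ⊕ Fin (m + m) → F))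
    (hQf : ∀ u v, polar Q u v = Cfsg.sympForm (m + m) F u v) (hE : ElusSp Q 2) :
    ∃ U : Submodule F (Fin (m + m) ⊕ Fin (m + m) → F), (∀ u ∈ U, Q u = 0) ∧ finrank F U = m + m := by
  set x : (Fin (m + m) ⊕ Fin (m + m) → F) ≃ₗ[F] (Fin (m + m) ⊕ Fin (m + m) → F) :=
    LinearEquiv.ofInvolutive (NSP.uLin m) (NSP.uLin_invol h2 m) with hx
  have hxa : ∀ v, x v = NSP.uLin m v := fun v => rfl
  have hxS : x ∈ SpG Q := by
    intro u v
    rw [hQf, hQf, hxa, hxa, t4s_symp h2 m hm]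
  obtain ⟨g, hg, hgO⟩ := hE x hxS ⟨1, fun v => by
      rw [one_smul, pow_two]
      exact NSP.uLin_invol h2 m v⟩ (by
    intro z
    let i0 : Fin (m + m) := ⟨0, by omega⟩
    refine ⟨Pi.single (Sum.inr i0) 1, fun h => ?_⟩
    have := congrFun h (Sum.inl (NSP.shiftσ m i0))
    rw [hxa, NSP.uLin_inl, NSP.shiftσ_shiftσ] at this
    simp at this)
  have hgi : g⁻¹ ∈ SpG Q := (SpG Q).inv_mem hg
  -- invariance of `Q ∘ g⁻¹`
  have hinv : ∀ w, Q (g⁻¹ (x w)) = Q (g⁻¹ w) := by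
    intro w
    have h := hgO (g⁻¹ w)
    rw [LinearEquiv.mul_apply, LinearEquiv.mul_apply] at h
    have hgg : g (g⁻¹ w) = w := by
      rw [← LinearEquiv.mul_apply, mul_inv_cancel]
      rfl
    rwa [hgg] at h
  refine ⟨(LinearMap.range (NSP.uLin (F := F) m - LinearMap.id)).map
    (g⁻¹ : (Fin (m + m) ⊕ Fin (m + m) → F) ≃ₗ[F] (Fin (m + m) ⊕ Fin (m + m) → F)).toLinearMap, ?_, ?_⟩
  · rintro _ ⟨_, ⟨w, rfl⟩, rfl⟩
    rw [LinearMap.sub_apply, LinearMap.id_apply, LinearEquiv.coe_coe, ← hxa]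
    have hsub : x w - w = x w + w := by
      funext i
      simp only [Pi.sub_apply, Pi.add_apply]
      linear_combination (-(w i)) * h2
    rw [hsub, map_add]
    have hp : polar Q (g⁻¹ (x w)) (g⁻¹ w) = 0 := by
      rw [hgi, hQf, hxa, t4s_zero h2 m hm]
    unfold polar at hp
    rw [hinv] at hp
    linear_combination hp + (Q (g⁻¹ w)) * h2
  · rw [LinearEquiv.finrank_map_eq, t4s_rank h2 m hm]

end Cfsg.Agent.Lib.Helper97.SPQ
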