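import Cfsg.Agent.Lib.Helper97.SPQ.S3
import Cfsg.Agent.Lib.Helper97.NSP.T4

set_option autoImplicit false

namespace Cfsg.Agent.Lib.Helper97.SPQ

open QuadraticMap Module
open Cfsg.Agent.Lib.Helper49 hiding glEquiv glEquiv_apply
open Cfsg.Agent.Lib.Helper97.NSP (uLin uLin_inl uLin_inr uLin_invol uOG uOG_apply uOG_fix_iff shiftσ shiftσ_shiftσ)

theorem plus_of_elusSp_two' {F : Type*} [Field F] [Fintype F] (h2 : (2 : F) = 0) (m : ℕ) (hm : 0 < m)
    (Q : QuadraticForm F (Fin (m + m) ⊕ Fin (m + m) → F))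
    (hQf : ∀ u v, polar Q u v = Cfsg.sympForm (m + m) F u v) (hE : ElusSp Q 2) :
    ∃ U : Submodule F (Fin (m + m) ⊕ Fin (m + m) → F), (∀ u ∈ U, Q u = 0) ∧ finrank F U = m + m := by
  have hPB : ∀ u v, polar (plusQF (m + m) F) u v = polar Q u v := by
    intro u v
    rw [hQf, Cfsg.Agent.Lib.Helper95.sympForm_eq, plusQF_coe, polar_quadFormPlus]
    rw [← sub_eq_zero, ← Finset.sum_sub_distrib]
    apply Finset.sum_eq_zero
    intro i _
    linear_combination (u (Sum.inl i) * v (Sum.inr i)) * h2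
  have hfr : Module.finrank F (Fin (m + m) ⊕ Fin (m + m) → F) = 2 * (m + m) := by
    rw [Module.finrank_fintype_fun_eq_card, Fintype.card_sum, Fintype.card_fin]; ring
  obtain ⟨g0, hg0⟩ : ∃ g0, g0 = uOG (F := F) h2 m hm := ⟨_, rfl⟩
  have hker : LinearMap.ker (dOG _ g0) = LinearMap.range (dOG _ g0) := by
    ext v
    rw [mem_ker_dOG, hg0, uOG_fix_iff]
    constructor
    · intro h
      refine ⟨Sum.elim (fun _ => 0) (fun i => v (Sum.inl (shiftσ m i))), ?_⟩
      rw [dOG_apply, uOG_apply]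
      ext (i | i)
      · simp [uLin_inl, shiftσ_shiftσ]
      · simp [uLin_inr, h]
    · rintro ⟨w, rfl⟩ i
      rw [dOG_apply, uOG_apply]
      simp [uLin_inr]
  have hxS : g0.1 ∈ SpG Q := by
    intro u v
    rw [← hPB, OG_polar, hPB]
  obtain ⟨g, hg, hgx⟩ := hE g0.1 hxS ⟨1, fun v => by
      rw [one_smul, pow_two, hg0]
      exact uLin_invol h2 m v⟩ (by
    intro z
    let i0 : Fin (m + m) := ⟨0, by omega⟩
    refine ⟨Pi.single (Sum.inr i0) 1, fun h => ?_⟩
    have := congrFun h (Sum.inl (shiftσ m i0))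
    rw [hg0, uOG_apply, uLin_inl, shiftσ_shiftσ] at this
    simp at this)
  have hzero : ∀ w, polar Q (g0.1 w) w = 0 := by
    intro w
    have h1 : plusQF (m + m) F (g0.1 w - w) = 0 := by
      have h3 : g0.1 (g0.1 w - w) = g0.1 w - w := by
        rw [← mem_ker_dOG, hker]
        exact ⟨w, rfl⟩
      rw [hg0, uOG_fix_iff] at h3
      rw [plusQF_coe]
      unfold Cfsg.quadFormPlus
      apply Finset.sum_eq_zero
      intro i _
      rw [hg0, h3 i, mul_zero]
    rw [sub_eq_add_neg, Q_add_eq, QuadraticMap.map_neg, OG_apply, polar_neg_right, hPB] at h1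
    linear_combination (plusQF (m + m) F w) * h2 - h1
  refine ⟨(LinearMap.range (dOG _ g0)).map ((g⁻¹ : _ ≃ₗ[F] _) : _ →ₗ[F] _), ?_, ?_⟩
  · rintro _ ⟨_, ⟨w, rfl⟩, rfl⟩
    rw [dOG_apply]
    change Q (g⁻¹ (g0.1 w - w)) = 0
    rw [Q_conj_range h2 hg hgx, hzero, neg_zero]
  · rw [LinearEquiv.finrank_map_eq]
    have d1 := LinearMap.finrank_range_add_finrank_ker (dOG _ g0)
    rw [hker, hfr] at d1
    omega

end Cfsg.Agent.Lib.Helper97.SPQ
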