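import Cfsg.Agent.Lib.Helper97.SPQ.T3S
import Cfsg.Agent.Lib.Helper97.SPQ.S1245

set_option autoImplicit false

namespace Cfsg.Agent.Lib.Helper97.SPQ

open QuadraticMap Module
open Cfsg.Agent.Lib.Helper49 hiding glEquiv glEquiv_apply

variable {F V : Type*} [Field F] [AddCommGroup V] [Module F V] {Q : QuadraticForm F V}

/-- if `Q a` is of the form `u² + u` then `Q + B(a,·)²` is isometric to `Q` by an element of `Sp` -/
theorem exists_tau (h2 : (2 : F) = 0) (a : V) (u : F) (hu : Q a = u ^ 2 + u) :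
    ∃ g ∈ SpG Q, ∀ v, Q (g v) = Qa Q a v := by
  obtain ⟨s, hs⟩ : ∃ s : F, s ^ 2 * Q a + s = 1 := by
    by_cases hu0 : u = 0
    · refine ⟨1, ?_⟩
      rw [hu, hu0]; ring
    · refine ⟨u⁻¹, ?_⟩
      rw [hu]
      have : u⁻¹ * u = 1 := inv_mul_cancel₀ hu0
      linear_combination (u⁻¹ * u + 1 + u⁻¹) * this + u⁻¹ * h2
  let τ : V →ₗ[F] V := LinearMap.id +
    (LinearMap.toSpanSingleton F V a).comp (s • polarBilin Q a)
  have hτ : ∀ v, τ v = v + (s * polar Q a v) • a := by
    intro v
    simp [τ, LinearMap.toSpanSingleton_apply]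
  have haa : polar Q a a = 0 := by
    rw [polar_self]
    simp only [nsmul_eq_mul, Nat.cast_ofNat]
    rw [h2, zero_mul]
  have hinv : Function.Involutive τ := by
    intro v
    rw [hτ, hτ, polar_add_right, polar_smul_right, haa, smul_eq_mul, mul_zero, add_zero]
    have : (2 : F) • ((s * polar Q a v) • a) = 0 := by rw [h2, zero_smul]
    linear_combination (norm := module) this
  have hQτ : ∀ v, Q (τ v) = Qa Q a v := by
    intro v
    rw [hτ, Q_add_eq, QuadraticMap.map_smul, polar_smul_right, Qa_apply, polar_comm Q v a]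
    simp only [smul_eq_mul]
    linear_combination (polar Q a v) ^ 2 * hs
  refine ⟨LinearEquiv.ofInvolutive τ hinv, ?_, hQτ⟩
  intro v w
  change polar Q (τ v) (τ w) = _
  rw [← polar_Qa h2 a v w]
  unfold polar
  rw [← map_add, hQτ, hQτ, hQτ]

/-- two forms with the same polar form, both with Lagrangians, differ by `B(b,·)²` with `Q b = u² + u` -/
theorem as_of_two_lagr [FiniteDimensional F V] (h2 : (2 : F) = 0)
    (hQ : (polarBilin Q).Nondegenerate) (b : V) (K L : Submodule F V)
    (hK : IsLagr Q K) (hL : IsLagr (Qa Q b) L) : ∃ u : F, Q b = u ^ 2 + u := by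
  have hLm : ∀ v, (∀ l ∈ L, polar Q l v = 0) → v ∈ L := by
    intro v hv
    apply hL.mem_of_forall
    intro l hl
    rw [polar_Qa h2]
    exact hv l hl
  have hb : b ∈ K ⊔ L := by
    rw [← LinearMap.BilinForm.orthogonal_orthogonal hQ (polarBilin_isSymm Q).isRefl (K ⊔ L)]
    intro z hz
    have hzK : z ∈ K := hK.mem_of_forall (fun k hk => hz k (Submodule.mem_sup_left hk))
    have hzL : z ∈ L := hLm z (fun l hl => hz l (Submodule.mem_sup_right hl))
    have h1 := hL.1 z hzL
    rw [Qa_apply, hK.1 z hzK, zero_add] at h1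
    have h3 : polar Q b z = 0 := mul_self_eq_zero.1 h1
    change polar Q z b = 0
    rw [polar_comm]; exact h3
  obtain ⟨k0, hk0, l0, hl0, rfl⟩ := Submodule.mem_sup.1 hb
  refine ⟨polar Q k0 l0, ?_⟩
  have h1 := hL.1 l0 hl0
  have hll : polar Q l0 l0 = 0 := by
    rw [polar_self]
    simp only [nsmul_eq_mul, Nat.cast_ofNat]
    rw [h2, zero_mul]
  rw [Qa_apply, polar_add_left, hll, add_zero] at h1
  rw [Q_add_eq, hK.1 k0 hk0]
  linear_combination h1 - (polar Q k0 l0) ^ 2 * h2

theorem range_of_perp_ker [FiniteDimensional F V] (hQ : (polarBilin Q).Nondegenerate)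
    {x : V ≃ₗ[F] V} (hx : x ∈ SpG Q) (c : V) (hc : ∀ k, x k = k → polar Q k c = 0) :
    ∃ a, x a - a = c := by
  have h1 : c ∈ LinearMap.range ((x : V →ₗ[F] V) - LinearMap.id) := by
    rw [← LinearMap.BilinForm.orthogonal_orthogonal hQ (polarBilin_isSymm Q).isRefl
      (LinearMap.range ((x : V →ₗ[F] V) - LinearMap.id))]
    intro k hk
    apply hc
    rw [sp_fix_iff_perp hQ hx]
    intro w
    have := hk (x w - w) ⟨w, rfl⟩
    change polar Q (x w - w) k = 0 at this
    rw [polar_comm]; exact this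
  obtain ⟨a, ha⟩ := h1
  exact ⟨a, ha⟩

end Cfsg.Agent.Lib.Helper97.SPQ
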